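import Cfsg.Agent.Lib.Helper57.OE.Defs
import Cfsg.Agent.Lib.Helper13.OrthWrap

/-!
# Piece N0 (even orthogonal campaign): Eichler transformations as matrices in `omegaGL Q`
-/

set_option autoImplicit false

namespace Cfsg.Agent.Lib.Helper86.OE

open Cfsg Cfsg.Geo Matrix Cfsg.Agent.Lib.Helper13.Asch Cfsg.Agent.Lib.Helper90.Sp
  Cfsg.Agent.Lib.Helper57.OE
open Cfsg.Agent.Lib.Helper44 Cfsg.Agent.Lib.Helper13.O Cfsg.Agent.Lib.Helper94
open scoped Kronecker MatrixGroups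

variable {ι : Type} [Fintype ι] [DecidableEq ι] {F : Type*} [Field F] {Q : (ι → F) → F}

omit [Fintype ι] [DecidableEq ι] in
theorem quadOf_nondeg (hQ : IsNondegenerateQuadraticForm Q) :
    (QuadraticMap.polarBilin (quadOf Q hQ)).Nondegenerate := pB_quadOf_nondegenerate Q hQ

omit [DecidableEq ι] in
theorem finrank_fun : Module.finrank F (ι → F) = Fintype.card ι :=
  Module.finrank_fintype_fun_eq_card F

/-- transfer of an element of `Om` to a matrix -/
theorem exists_mat_of_Om (hQ : IsNondegenerateQuadraticForm Q) (φ : (ι → F) ≃ₗ[F] (ι → F))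
    (hφ : φ ∈ Om (quadOf Q hQ)) :
    ∃ g ∈ omegaGL Q, ∀ x, (g : Matrix ι ι F) *ᵥ x = φ x := by
  refine ⟨(Cfsg.Agent.Lib.Helper94.glEquiv ι F).symm φ, ?_, fun x => ?_⟩
  · have : (Cfsg.Agent.Lib.Helper94.glEquiv ι F).symm φ ∈ omegaGL ⇑(quadOf Q hQ) := by
      rw [mem_omegaGL_iff, MulEquiv.apply_symm_apply]; exact hφ
    exact this
  · rw [← Cfsg.Agent.Lib.Helper94.glEquiv_apply, MulEquiv.apply_symm_apply]

/-- transfer: an element of `Om` that does not stabilise `W` -/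
theorem not_le_stab_of_Om (hQ : IsNondegenerateQuadraticForm Q) (W : Submodule F (ι → F))
    (h : ∃ φ ∈ Om (quadOf Q hQ), ¬ ∀ w ∈ W, φ w ∈ W) : ¬ omegaGL Q ≤ subspaceStabilizer W := by
  obtain ⟨φ, hφ, hns⟩ := h
  obtain ⟨g, hg, hgx⟩ := exists_mat_of_Om hQ φ hφ
  intro hle
  apply hns
  intro w hw
  have := (mem_subspaceStabilizer_iff g W).1 (hle hg) w hw
  rwa [Cfsg.Agent.Lib.Helper94.glEquiv_apply, hgx] at this

theorem exists_eichler [Fintype F] (hQ : IsNondegenerateQuadraticForm Q)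
    (hι : 5 ≤ Fintype.card ι) (u v : ι → F) (hu : Q u = 0) (huv : QuadraticMap.polar Q u v = 0) :
    ∃ g ∈ omegaGL Q, ∀ x, (g : Matrix ι ι F) *ᵥ x =
      x + QuadraticMap.polar Q v x • u - QuadraticMap.polar Q u x • v -
        (Q v * QuadraticMap.polar Q u x) • u := by
  obtain ⟨g, hg, hgx⟩ := exists_mat_of_Om hQ (eichler (quadOf Q hQ) u v hu huv)
    (eichler_mem_Om (quadOf_nondeg hQ) (by rw [finrank_fun]; omega) u v hu huv)
  refine ⟨g, hg, fun x => ?_⟩
  rw [hgx]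
  exact eichler_apply (quadOf Q hQ) u v hu huv x

end Cfsg.Agent.Lib.Helper86.OE
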