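import Cfsg.Agent.Lib.Helper86.OE.N0
import Cfsg.Agent.Lib.Helper13.OrthPar

/-!
# Piece N1 (even orthogonal campaign): `Ω` does not stabilise a totally singular subspace
-/

set_option autoImplicit false

namespace Cfsg.Agent.Lib.Helper86.OE

open Cfsg Cfsg.Geo Matrix Cfsg.Agent.Lib.Helper13.Asch Cfsg.Agent.Lib.Helper90.Sp
  Cfsg.Agent.Lib.Helper57.OE
open Cfsg.Agent.Lib.Helper44 Cfsg.Agent.Lib.Helper13.O Cfsg.Agent.Lib.Helper94
open scoped Kronecker MatrixGroups

variable {ι : Type} [Fintype ι] [DecidableEq ι] {F : Type*} [Field F] {Q : (ι → F) → F}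

theorem not_le_sing [Fintype F] (hQ : IsNondegenerateQuadraticForm Q) (hι : 5 ≤ Fintype.card ι)
    (W : Submodule F (ι → F)) (hW0 : W ≠ ⊥) (hW : IsTotallySingularQuad Q W) :
    ¬ omegaGL Q ≤ subspaceStabilizer W :=
  not_le_stab_of_Om hQ W
    (par_ne (quadOf_nondeg hQ) (by rw [finrank_fun]; omega) (fun w hw => hW w hw) hW0)

end Cfsg.Agent.Lib.Helper86.OE
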