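import Cfsg.Agent.Lib.Helper86.OE.N0
import Cfsg.Agent.Lib.Helper13.OrthNSV
import Cfsg.Agent.Lib.Helper44.Isotropy

/-!
# Piece N3 (even orthogonal campaign): `Ω` does not stabilise a nonsingular line
-/

set_option autoImplicit false

namespace Cfsg.Agent.Lib.Helper86.OE

open Cfsg Cfsg.Geo Matrix Module QuadraticMap Cfsg.Agent.Lib.Helper13.Asch Cfsg.Agent.Lib.Helper90.Sp
  Cfsg.Agent.Lib.Helper57.OE
open Cfsg.Agent.Lib.Helper44 Cfsg.Agent.Lib.Helper13.O Cfsg.Agent.Lib.Helper94
open scoped Kronecker MatrixGroups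

variable {ι : Type} [Fintype ι] [DecidableEq ι] {F : Type*} [Field F] {Q : (ι → F) → F}

theorem nsv_ne' {V : Type*} [AddCommGroup V] [Module F V] [Fintype F] [FiniteDimensional F V]
    {Q : QuadraticForm F V}
    (hQ : (polarBilin Q).Nondegenerate) (hdim : 4 < finrank F V) {v : V} (hv : Q v ≠ 0) :
    ∃ φ ∈ Om Q, ¬ ∀ w ∈ Submodule.span F {v}, φ w ∈ Submodule.span F {v} := by
  classical
  have hcard : ({v} : Finset V).card ≤ 1 := by simp
  have hfo := finrank_orth hQ ({v} : Finset V)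
  obtain ⟨c, hc, hc0, hQc⟩ := exists_singular_of_finrank Q (orth Q {v}) (by omega)
  rw [Cfsg.Agent.Lib.Helper13.O.mem_orth] at hc
  have hvc : polar Q v c = 0 := hc v (by simp)
  have hnot : v ∉ Submodule.span F {c} := by
    intro hmem
    obtain ⟨l, hl⟩ := Submodule.mem_span_singleton.1 hmem
    apply hv
    rw [← hl, QuadraticMap.map_smul, hQc]; simp
  obtain ⟨a, hca, hav⟩ := exists_perp_polar_eq_one hQ hnot
  refine ⟨eichler Q c a hQc hca, eichler_mem_Om hQ (by omega) _ _ _ _, fun hs => ?_⟩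
  have h1 := hs v (Submodule.mem_span_singleton_self v)
  rw [eichler_apply, hav, polar_comm Q c v, hvc] at h1
  simp only [one_smul, zero_smul, mul_zero, sub_zero] at h1
  have h2 := (Submodule.add_mem_iff_right _ (Submodule.mem_span_singleton_self v)).1 h1
  obtain ⟨l, hl⟩ := Submodule.mem_span_singleton.1 h2
  have h3 : Q c = l * l * Q v := by rw [← hl, QuadraticMap.map_smul, smul_eq_mul]
  rw [hQc] at h3
  have hl0 : l = 0 := by
    rcases mul_eq_zero.1 h3.symm with h | h
    · rcases mul_eq_zero.1 h with h | h <;> exact h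
    · exact absurd h hv
  apply hc0
  rw [← hl, hl0, zero_smul]

theorem not_le_vec [Fintype F] (hQ : IsNondegenerateQuadraticForm Q) (hι : 8 ≤ Fintype.card ι)
    (v : ι → F) (hv : Q v ≠ 0) : ¬ omegaGL Q ≤ subspaceStabilizer (Submodule.span F {v}) :=
  not_le_stab_of_Om hQ _
    (nsv_ne' (quadOf_nondeg hQ) (by rw [finrank_fun]; omega) (v := v) hv)

end Cfsg.Agent.Lib.Helper86.OE
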