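import Cfsg.Agent.Lib.Helper86.OE.N0
import Cfsg.Agent.Lib.Helper13.OrthND

/-!
# Piece N2 (even orthogonal campaign): `Ω` does not stabilise a proper nondegenerate subspace
-/

set_option autoImplicit false

namespace Cfsg.Agent.Lib.Helper86.OE

open Cfsg Cfsg.Geo Matrix Module Cfsg.Agent.Lib.Helper13.Asch Cfsg.Agent.Lib.Helper90.Sp
  Cfsg.Agent.Lib.Helper57.OE
open Cfsg.Agent.Lib.Helper44 Cfsg.Agent.Lib.Helper13.O Cfsg.Agent.Lib.Helper94
open scoped Kronecker MatrixGroups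

variable {ι : Type} [Fintype ι] [DecidableEq ι] {F : Type*} [Field F] {Q : (ι → F) → F}

theorem nd_ne' {V : Type*} [AddCommGroup V] [Module F V] [Fintype F] [FiniteDimensional F V]
    {Q : QuadraticForm F V} {W W' : Submodule F V} (h : OD Q W W')
    (hQ : (QuadraticMap.polarBilin Q).Nondegenerate) (hdim : 4 < finrank F V) (hW : W ≠ ⊥)
    (hW' : W' ≠ ⊥) : ∃ φ ∈ Om Q, ¬ ∀ w ∈ W, φ w ∈ W := by
  have hadd := h.finrank_add
  by_cases hle : finrank F W' ≤ finrank F W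
  · exact h.ne hQ (by omega) (by omega) hW'
  · obtain ⟨φ, hφ, hs⟩ := h.symm.ne hQ (by omega) (by omega) hW
    exact ⟨φ, hφ, fun hs' => hs (h.stab_symm hQ (Om_le_OQ Q hφ) hs')⟩

theorem not_le_nd [Fintype F] (hQ : IsNondegenerateQuadraticForm Q) (hι : 5 ≤ Fintype.card ι)
    (W : Submodule F (ι → F)) (hW0 : W ≠ ⊥) (hW1 : W ≠ ⊤)
    (hW : IsNondegenerateOn (QuadraticMap.polar Q) W) :
    ¬ omegaGL Q ≤ subspaceStabilizer W := by
  have hod := OD_of_nondeg (quadOf_nondeg hQ) (W := W)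
    (fun w hw hw0 => (hW w hw hw0).1)
  refine not_le_stab_of_Om hQ W (nd_ne' hod (quadOf_nondeg hQ) (by rw [finrank_fun]; omega) hW0 ?_)
  intro hbot
  apply hW1
  have := hod.compl.sup_eq_top
  rwa [hbot, sup_bot_eq] at this

end Cfsg.Agent.Lib.Helper86.OE
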